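import Mathlib
import Cfsg.Agent.Lib.Helper17.ReeMult.Defs

/-!
# [P2] for the Schur multiplier of the small Ree groups

In a central extension `τ : Y → G`, the preimage of an elementary abelian subgroup `P` of order `8`
that is normalised, but not centralised, by an element `g` with `g ^ 7 = 1` is commutative.
-/

set_option autoImplicit false

namespace Cfsg.Agent.Lib.Helper8.ReeMult

universe u v

section grp

variable {G : Type*} [Group G]

/-- the conjugates `g ^ k * x * g⁻¹ ^ k` -/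
def cj (g x : G) (k : ℕ) : G := g ^ k * x * g⁻¹ ^ k

theorem cj_zero (g x : G) : cj g x 0 = x := by simp [cj]

theorem cj_succ (g x : G) (k : ℕ) : cj g x (k + 1) = g * cj g x k * g⁻¹ := by
  unfold cj
  rw [pow_succ', pow_succ]
  simp only [mul_assoc]

theorem cj_add_seven (g x : G) (hg : g ^ 7 = 1) (k : ℕ) : cj g x (k + 7) = cj g x k := by
  unfold cj
  rw [pow_add, pow_add, hg, inv_pow g 7, hg]
  simp

theorem cj_add (g x : G) (j e : ℕ) : cj g x (j + e) = g ^ j * cj g x e * g⁻¹ ^ j := by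
  unfold cj
  rw [pow_add, add_comm j e, pow_add]
  simp only [mul_assoc]

theorem cj_mul_shift (g x : G) (j k l : ℕ) (h : cj g x j * cj g x k = cj g x l) :
    cj g x (j + 1) * cj g x (k + 1) = cj g x (l + 1) := by
  rw [cj_succ, cj_succ, cj_succ, ← h]
  group

theorem cj_map {Y : Type*} [Group Y] (τ : Y →* G) (γ ξ : Y) (k : ℕ) :
    τ (cj γ ξ k) = cj (τ γ) (τ ξ) k := by
  unfold cj
  rw [map_mul, map_mul, map_pow, map_pow, map_inv]

theorem exists_inv_mod_seven (e : ℕ) (h0 : 0 < e) (h7 : e < 7) :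
    ∃ a b : ℕ, e * a = 7 * b + 1 := by
  interval_cases e
  · exact ⟨1, 0, rfl⟩
  · exact ⟨4, 1, rfl⟩
  · exact ⟨5, 2, rfl⟩
  · exact ⟨2, 1, rfl⟩
  · exact ⟨3, 2, rfl⟩
  · exact ⟨6, 5, rfl⟩

/-- The group-theoretic core: a subgroup `N` containing `x₀`, `x₁ x₆`, `x₂ x₅`, `x₃ x₄`
contains `P`. -/
theorem p2_group (P N : Subgroup G) (g x : G) (hcard : Nat.card ↥P = 8)
    (hexp : ∀ y ∈ P, y * y = 1) (hnorm : ∀ y ∈ P, g * y * g⁻¹ ∈ P) (hg : g ^ 7 = 1)
    (hx : x ∈ P) (hgx : g * x * g⁻¹ ≠ x) (h0 : cj g x 0 ∈ N)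
    (h1 : cj g x 1 * cj g x 6 ∈ N) (h2 : cj g x 2 * cj g x 5 ∈ N)
    (h3 : cj g x 3 * cj g x 4 ∈ N) : P ≤ N := by
  classical
  have hP : ∀ k, cj g x k ∈ P := by
    intro k
    induction k with
    | zero => rw [cj_zero]; exact hx
    | succ k ih => rw [cj_succ]; exact hnorm _ ih
  have hx1 : x ≠ 1 := by
    rintro rfl
    apply hgx
    group
  have hne1 : ∀ k, cj g x k ≠ 1 := by
    intro k hk
    apply hx1
    unfold cj at hk
    have h' : x = (g ^ k)⁻¹ * (g ^ k * x * g⁻¹ ^ k) * (g⁻¹ ^ k)⁻¹ := by group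
    rw [h', hk]
    group
  have hinv : ∀ a ∈ P, a⁻¹ = a := fun a ha => inv_eq_of_mul_eq_one_left (hexp a ha)
  have hcomm : ∀ a ∈ P, ∀ b ∈ P, a * b = b * a := by
    intro a ha b hb
    have h4 : (a * b)⁻¹ = a * b := hinv _ (P.mul_mem ha hb)
    rw [mul_inv_rev, hinv a ha, hinv b hb] at h4
    exact h4.symm
  have hlt : ∀ j e, 0 < e → e < 7 → cj g x j ≠ cj g x (j + e) := by
    intro j e he0 he7 h
    rw [cj_add] at h
    have h5 : x = cj g x e := by
      unfold cj at h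
      have := mul_right_cancel (mul_left_cancel (by simpa only [mul_assoc] using h :
        g ^ j * (x * g⁻¹ ^ j) = g ^ j * ((g ^ e * x * g⁻¹ ^ e) * g⁻¹ ^ j)))
      exact this
    have hc : Commute (g ^ e) x := by
      unfold cj at h5
      have h6 : (g ^ e * x * g⁻¹ ^ e) * g ^ e = g ^ e * x := by group
      rw [← h5] at h6
      exact h6.symm
    obtain ⟨a, b, hab⟩ := exists_inv_mod_seven e he0 he7
    have hc2 : Commute (g ^ (e * a)) x := by
      rw [pow_mul]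
      exact hc.pow_left a
    rw [hab, pow_add, pow_mul, hg, one_pow, one_mul, pow_one] at hc2
    apply hgx
    rw [hc2.eq]
    group
  have hinj : ∀ j k, j < 7 → k < 7 → cj g x j = cj g x k → j = k := by
    intro j k hj hk h
    by_contra hne
    rcases Nat.lt_or_gt_of_ne hne with hlt' | hlt'
    · apply hlt j (k - j) (by omega) (by omega)
      rw [show j + (k - j) = k by omega]
      exact h
    · apply hlt k (j - k) (by omega) (by omega)
      rw [show k + (j - k) = j by omega]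
      exact h.symm
  obtain ⟨S, hS⟩ : ∃ S : Finset G, S = insert 1 ((Finset.range 7).image (cj g x)) := ⟨_, rfl⟩
  have hScard : S.card = 8 := by
    rw [hS, Finset.card_insert_of_notMem, Finset.card_image_of_injOn, Finset.card_range]
    · intro j hj k hk h
      exact hinj j k (Finset.mem_range.mp hj) (Finset.mem_range.mp hk) h
    · intro h
      obtain ⟨k, -, hk⟩ := Finset.mem_image.mp h
      exact hne1 k hk
  have hSP : (S : Set G) ⊆ (P : Set G) := by
    intro y hy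
    rw [hS] at hy
    simp only [Finset.coe_insert, Finset.coe_image, Set.mem_insert_iff, Set.mem_image] at hy
    rcases hy with rfl | ⟨k, -, rfl⟩
    · exact P.one_mem
    · exact hP k
  have hfinP : Finite ↥P := Nat.finite_of_card_ne_zero (by rw [hcard]; norm_num)
  have hfin : (P : Set G).Finite := Set.toFinite _
  have hSeq : (S : Set G) = (P : Set G) := by
    apply Set.eq_of_subset_of_ncard_le hSP _ hfin
    rw [Set.ncard_coe_finset, hScard, ← Nat.card_coe_set_eq]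
    exact hcard.le
  have hall : ∀ y ∈ P, y = 1 ∨ ∃ k, k < 7 ∧ cj g x k = y := by
    intro y hy
    have h4 : y ∈ (S : Set G) := by rw [hSeq]; exact hy
    rw [hS] at h4
    simp only [Finset.coe_insert, Finset.coe_image, Set.mem_insert_iff, Set.mem_image,
      Finset.coe_range, Set.mem_Iio] at h4
    rcases h4 with h | ⟨k, hk, h⟩
    · exact Or.inl h
    · exact Or.inr ⟨k, hk, h⟩
  have h01 : cj g x 0 * cj g x 1 ≠ 1 := by
    intro h
    have h5 := inv_eq_of_mul_eq_one_right h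
    rw [hinv _ (hP 0)] at h5
    have := hinj 0 1 (by norm_num) (by norm_num) h5
    omega
  obtain ⟨s, hs7, hs⟩ : ∃ s, s < 7 ∧ cj g x s = cj g x 0 * cj g x 1 := by
    rcases hall _ (P.mul_mem (hP 0) (hP 1)) with h | h
    · exact absurd h h01
    · exact h
  have hshift : ∀ j, cj g x j * cj g x (j + 1) = cj g x (j + s) := by
    intro j
    induction j with
    | zero => rw [zero_add, zero_add]; exact hs.symm
    | succ j ih =>
      have h4 := cj_mul_shift g x j (j + 1) (j + s) ih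
      rw [show j + s + 1 = j + 1 + s by ring] at h4
      exact h4
  have hper := cj_add_seven g x hg
  suffices hN : ∀ k, k < 7 → cj g x k ∈ N by
    intro y hy
    rcases hall y hy with rfl | ⟨k, hk, rfl⟩
    · exact N.one_mem
    · exact hN k hk
  have r0 := hshift 0
  have r1 := hshift 1
  have r2 := hshift 2
  have r3 := hshift 3
  have r4 := hshift 4
  have r5 := hshift 5
  have r6 := hshift 6
  have p7 : cj g x 7 = cj g x 0 := hper 0
  have p8 : cj g x 8 = cj g x 1 := hper 1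
  have p9 : cj g x 9 = cj g x 2 := hper 2
  have p10 : cj g x 10 = cj g x 3 := hper 3
  have p11 : cj g x 11 = cj g x 4 := hper 4
  have p12 : cj g x 12 = cj g x 5 := hper 5
  interval_cases s <;> simp only [Nat.reduceAdd, p7, p8, p9, p10, p11, p12] at r0 r1 r2 r3 r4 r5 r6
  · -- s = 0
    exact absurd (mul_left_cancel (a := cj g x 0) (by rw [r0, mul_one])) (hne1 1)
  · -- s = 1
    exact absurd (mul_right_cancel (b := cj g x 1) (by rw [r0, one_mul])) (hne1 0)
  · -- s = 2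
    exfalso
    have h4 : cj g x 3 = cj g x 0 := by
      rw [← r1, ← r0, hcomm _ (hP 0) _ (hP 1), ← mul_assoc, hexp _ (hP 1), one_mul]
    have := hinj 3 0 (by norm_num) (by norm_num) h4
    omega
  · -- s = 3
    have n6 : cj g x 6 ∈ N := by rw [← r3]; exact h3
    have n1 : cj g x 1 ∈ N := by
      have := N.mul_mem h1 (N.inv_mem n6)
      simpa using this
    have n3 : cj g x 3 ∈ N := by rw [← r0]; exact N.mul_mem h0 n1
    have n4 : cj g x 4 ∈ N := by
      have := N.mul_mem (N.inv_mem n3) h3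
      simpa using this
    have n2 : cj g x 2 ∈ N := by rw [← r6]; exact N.mul_mem n6 h0
    have n5 : cj g x 5 ∈ N := by rw [← r2]; exact N.mul_mem n2 n3
    intro k hk
    interval_cases k <;> assumption
  · -- s = 4
    exfalso
    have h4 : cj g x 3 = cj g x 1 := by
      have h5 : cj g x 3 * cj g x 1 = 1 := by
        have h6 : cj g x 0 * (cj g x 3 * cj g x 1) = cj g x 0 * 1 := by
          rw [mul_one, ← mul_assoc, hcomm _ (hP 0) _ (hP 3), mul_assoc, r0, r3]
        exact mul_left_cancel h6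
      have h7 := inv_eq_of_mul_eq_one_right h5
      rw [hinv _ (hP 3)] at h7
      exact h7
    have := hinj 3 1 (by norm_num) (by norm_num) h4
    omega
  · -- s = 5
    have n1 : cj g x 1 ∈ N := by rw [← r3]; exact h3
    have n5 : cj g x 5 ∈ N := by rw [← r0]; exact N.mul_mem h0 n1
    have n6 : cj g x 6 ∈ N := by
      have := N.mul_mem (N.inv_mem n1) h1
      simpa using this
    have n4 : cj g x 4 ∈ N := by rw [← r6]; exact N.mul_mem n6 h0
    have n3 : cj g x 3 ∈ N := by rw [← r5]; exact N.mul_mem n5 n6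
    have n2 : cj g x 2 ∈ N := by rw [← r4]; exact N.mul_mem n4 n5
    intro k hk
    interval_cases k <;> assumption
  · -- s = 6
    exfalso
    have h4 : cj g x 2 = cj g x 6 := by
      have h5 : cj g x 1 * cj g x 2 = cj g x 1 * cj g x 6 := by
        rw [r1, ← r0, ← mul_assoc, hcomm _ (hP 1) _ (hP 0), mul_assoc, hexp _ (hP 1), mul_one]
      exact mul_left_cancel h5
    have := hinj 2 6 (by norm_num) (by norm_num) h4
    omega

end grp

section ext

variable {Y : Type*} [Group Y]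

theorem comm_aux (A B z ξ : Y) (hz : ∀ y, z * y = y * z) (h : ξ * A = z * A * ξ)
    (h2 : B * ξ = z * ξ * B) : A * B * ξ = ξ * (A * B) := by
  calc A * B * ξ = A * (B * ξ) := mul_assoc _ _ _
    _ = A * (z * ξ * B) := by rw [h2]
    _ = (A * z) * ξ * B := by simp only [mul_assoc]
    _ = (z * A) * ξ * B := by rw [hz A]
    _ = (ξ * A) * B := by rw [h]
    _ = ξ * (A * B) := mul_assoc _ _ _

theorem conj_aux (u ξ z : Y) (hz : ∀ y, z * y = y * z)
    (h : ξ * (u * ξ * u⁻¹) = z * (u * ξ * u⁻¹) * ξ) :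
    (u⁻¹ * ξ * u) * ξ = z * ξ * (u⁻¹ * ξ * u) := by
  have e1 : (u⁻¹ * ξ * u) * ξ = u⁻¹ * (ξ * (u * ξ * u⁻¹)) * u := by group
  have e2 : z * ξ * (u⁻¹ * ξ * u) = z * u⁻¹ * ((u * ξ * u⁻¹) * ξ) * u := by group
  rw [e1, h, e2, hz u⁻¹]
  simp only [mul_assoc]

theorem cj_compl (γ ξ : Y) (hc : ∀ y, γ ^ 7 * y = y * γ ^ 7) (a b : ℕ) (hab : a + b = 7) :
    cj γ ξ b = (γ ^ a)⁻¹ * ξ * γ ^ a := by
  unfold cj
  have e : γ ^ b = γ ^ 7 * (γ ^ a)⁻¹ := by
    rw [← hab, pow_add]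
    group
  rw [inv_pow, e]
  have e2 : γ ^ 7 * (γ ^ a)⁻¹ * ξ * (γ ^ 7 * (γ ^ a)⁻¹)⁻¹ =
      γ ^ 7 * ((γ ^ a)⁻¹ * ξ * γ ^ a) * (γ ^ 7)⁻¹ := by group
  rw [e2, hc, mul_assoc, mul_inv_cancel, mul_one]

end ext

/-- [P2] -/
theorem pkgP2 : Cfsg.Agent.Lib.Helper17.ReeMult.PkgP2.{u, v} := by
  intro G _ Y _ τ P g hsurj hker hcard hexp hnorm hg hex y₁ y₂ hy₁ hy₂
  have hinvP : ∀ a ∈ P, a⁻¹ = a := fun a ha => inv_eq_of_mul_eq_one_left (hexp a ha)
  have hcomm : ∀ a ∈ P, ∀ b ∈ P, a * b = b * a := by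
    intro a ha b hb
    have h4 : (a * b)⁻¹ = a * b := hinvP _ (P.mul_mem ha hb)
    rw [mul_inv_rev, hinvP a ha, hinvP b hb] at h4
    exact h4.symm
  have hcen : ∀ z : Y, τ z = 1 → ∀ y, z * y = y * z := by
    intro z hz y
    have h4 := hker (MonoidHom.mem_ker.mpr hz)
    rw [Subgroup.mem_center_iff] at h4
    exact (h4 y).symm
  obtain ⟨γ, hγ⟩ := hsurj g
  have hγ7 : ∀ y, γ ^ 7 * y = y * γ ^ 7 := hcen _ (by rw [map_pow, hγ, hg])
  have key : ∀ x ∈ P, g * x * g⁻¹ ≠ x → ∀ ξ : Y, τ ξ = x → ∀ y : Y, τ y ∈ P →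
      ξ * y = y * ξ := by
    intro x hx hgx ξ hξ y hy
    have hPk : ∀ k, cj g x k ∈ P := by
      intro k
      induction k with
      | zero => rw [cj_zero]; exact hx
      | succ k ih => rw [cj_succ]; exact hnorm _ ih
    have hpair : ∀ a b : ℕ, a + b = 7 →
        cj g x a * cj g x b ∈ (Subgroup.centralizer {ξ}).map τ := by
      intro a b hab
      have hA : cj γ ξ a = γ ^ a * ξ * (γ ^ a)⁻¹ := by unfold cj; rw [inv_pow]
      have hB : cj γ ξ b = (γ ^ a)⁻¹ * ξ * γ ^ a := cj_compl γ ξ hγ7 a b hab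
      have hτA : τ (γ ^ a * ξ * (γ ^ a)⁻¹) = cj g x a := by
        rw [← hA, cj_map, hγ, hξ]
      have hτB : τ ((γ ^ a)⁻¹ * ξ * γ ^ a) = cj g x b := by
        rw [← hB, cj_map, hγ, hξ]
      have hzc : ∀ y, (ξ * (γ ^ a * ξ * (γ ^ a)⁻¹) * ξ⁻¹ * (γ ^ a * ξ * (γ ^ a)⁻¹)⁻¹) * y =
          y * (ξ * (γ ^ a * ξ * (γ ^ a)⁻¹) * ξ⁻¹ * (γ ^ a * ξ * (γ ^ a)⁻¹)⁻¹) := by
        apply hcen
        rw [map_mul, map_mul, map_mul, map_inv, map_inv, hτA, hξ, hcomm x hx _ (hPk a)]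
        group
      have h1 : ξ * (γ ^ a * ξ * (γ ^ a)⁻¹) =
          (ξ * (γ ^ a * ξ * (γ ^ a)⁻¹) * ξ⁻¹ * (γ ^ a * ξ * (γ ^ a)⁻¹)⁻¹) *
            (γ ^ a * ξ * (γ ^ a)⁻¹) * ξ := by group
      have h2 := conj_aux (γ ^ a) ξ _ hzc h1
      have h3 := comm_aux _ _ _ ξ hzc h1 h2
      refine ⟨(γ ^ a * ξ * (γ ^ a)⁻¹) * ((γ ^ a)⁻¹ * ξ * γ ^ a), ?_, ?_⟩
      · rw [SetLike.mem_coe, Subgroup.mem_centralizer_iff]
        intro h hh
        rw [Set.mem_singleton_iff] at hh
        rw [hh]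
        exact h3.symm
      · rw [map_mul, hτA, hτB]
    have hPN : P ≤ (Subgroup.centralizer {ξ}).map τ := by
      apply p2_group P _ g x hcard hexp hnorm hg hx hgx
      · rw [cj_zero]
        refine ⟨ξ, ?_, hξ⟩
        rw [SetLike.mem_coe, Subgroup.mem_centralizer_iff]
        intro h hh
        rw [Set.mem_singleton_iff] at hh
        rw [hh]
      · exact hpair 1 6 rfl
      · exact hpair 2 5 rfl
      · exact hpair 3 4 rfl
    obtain ⟨w, hw, hwy⟩ := hPN hy
    have hz : τ (w⁻¹ * y) = 1 := by rw [map_mul, map_inv, hwy, inv_mul_cancel]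
    have hc := hcen _ hz
    rw [SetLike.mem_coe, Subgroup.mem_centralizer_iff] at hw
    have hw' : ξ * w = w * ξ := hw ξ rfl
    calc ξ * y = (ξ * w) * (w⁻¹ * y) := by group
      _ = w * ξ * (w⁻¹ * y) := by rw [hw']
      _ = w * ((w⁻¹ * y) * ξ) := by rw [mul_assoc, hc ξ]
      _ = y * ξ := by group
  obtain ⟨x, hx, hgx⟩ := hex
  obtain ⟨ξ, hξ⟩ := hsurj x
  by_cases h1 : g * τ y₁ * g⁻¹ = τ y₁
  · by_cases h2 : g * τ y₂ * g⁻¹ = τ y₂
    · have hnf : g * (τ y₁ * x) * g⁻¹ ≠ τ y₁ * x := by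
        intro h
        apply hgx
        have e : g * x * g⁻¹ = (g * τ y₁ * g⁻¹)⁻¹ * (g * (τ y₁ * x) * g⁻¹) := by group
        rw [e, h1, h]
        group
      have k1 := key (τ y₁ * x) (P.mul_mem hy₁ hx) hnf (y₁ * ξ) (by rw [map_mul, hξ]) y₂ hy₂
      have k2 := key x hx hgx ξ hξ y₂ hy₂
      have h3 : y₁ * y₂ * ξ = y₂ * y₁ * ξ := by
        calc y₁ * y₂ * ξ = y₁ * (ξ * y₂) := by rw [k2, mul_assoc]
          _ = y₁ * ξ * y₂ := (mul_assoc _ _ _).symm
          _ = y₂ * (y₁ * ξ) := k1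
          _ = y₂ * y₁ * ξ := (mul_assoc _ _ _).symm
      exact mul_right_cancel h3
    · exact (key (τ y₂) hy₂ h2 y₂ rfl y₁ hy₁).symm
  · exact key (τ y₁) hy₁ h1 y₁ rfl y₂ hy₂

end Cfsg.Agent.Lib.Helper8.ReeMult
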